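import Cfsg.Agent.H72.AdjPSL
import Cfsg.Agent.H190.Exc.Defs

/-!
# Families of primes with cyclic centralisers in `PSL_n(q)` : at most two members
-/

set_option autoImplicit false
set_option linter.unusedSectionVars false
set_option linter.unnecessarySeqFocus false

namespace Cfsg.Agent.H511.Exc

open Matrix Cfsg.Agent.H190.Exc Cfsg.Agent.H72.AdjOrth Cfsg.Agent.H72.AdjPSL

universe u

variable {F : Type u} [Field F] [Fintype F] {n : ℕ}

/-- equality in the projective group -/
theorem mk_eq_mk {A B : Matrix.SpecialLinearGroup (Fin n) F}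
    (h : (QuotientGroup.mk A : Matrix.ProjectiveSpecialLinearGroup (Fin n) F) = QuotientGroup.mk B) :
    ∃ c : F, (A : Matrix (Fin n) (Fin n) F) = c • (B : Matrix (Fin n) (Fin n) F) := by
  have h1 : B⁻¹ * A ∈ Subgroup.center (Matrix.SpecialLinearGroup (Fin n) F) := by
    rw [← QuotientGroup.eq]; exact h.symm
  obtain ⟨c, -, hc⟩ := Matrix.SpecialLinearGroup.mem_center_iff.1 h1
  refine ⟨c, ?_⟩
  have h2 : A = B * (B⁻¹ * A) := by group
  rw [h2, Matrix.SpecialLinearGroup.coe_mul, ← hc, Matrix.scalar_apply, ← Matrix.smul_one_eq_diagonal,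
    Matrix.mul_smul, Matrix.mul_one]

/-- orders in the projective group -/
theorem order_mk {A : Matrix.SpecialLinearGroup (Fin n) F} {r : ℕ} (hr : r.Prime)
    (h1 : (A : Matrix (Fin n) (Fin n) F) ^ r = 1)
    (h2 : ∀ c : F, (A : Matrix (Fin n) (Fin n) F) ≠ c • 1) :
    orderOf (QuotientGroup.mk A : Matrix.ProjectiveSpecialLinearGroup (Fin n) F) = r := by
  have := Fact.mk hr
  apply orderOf_eq_prime
  · rw [← QuotientGroup.mk_pow]
    have : A ^ r = 1 := by
      apply Subtype.ext
      rw [Matrix.SpecialLinearGroup.coe_pow, h1, Matrix.SpecialLinearGroup.coe_one]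
    rw [this]; rfl
  · intro h
    obtain ⟨c, hc⟩ := mk_eq_mk (A := A) (B := 1) (by rw [h]; rfl)
    exact h2 c (by rw [hc, Matrix.SpecialLinearGroup.coe_one])

/-- **the contradiction from two elements of the same prime order in the centraliser** -/
theorem not_cc {r t : ℕ} {X A B : Matrix (Fin n) (Fin n) F} (hr : r.Prime) (ht : t.Prime)
    (hX : X.det = 1) (hA : A.det = 1) (hB : B.det = 1)
    (hXr : X ^ r = 1) (hXs : ∀ c : F, X ≠ c • 1) (hAt : A ^ t = 1) (hAs : ∀ c : F, A ≠ c • 1)
    (hBt : B ^ t = 1) (hBs : ∀ c : F, B ≠ c • 1)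
    (hAX : A * X = X * A) (hBX : B * X = X * B) (hAB : ∀ (c : F) (k : ℕ), A ≠ c • B ^ k)
    (h : CC (Matrix.ProjectiveSpecialLinearGroup (Fin n) F) r) : False := by
  let gX : Matrix.SpecialLinearGroup (Fin n) F := ⟨X, hX⟩
  let gA : Matrix.SpecialLinearGroup (Fin n) F := ⟨A, hA⟩
  let gB : Matrix.SpecialLinearGroup (Fin n) F := ⟨B, hB⟩
  have hx : orderOf (QuotientGroup.mk gX : Matrix.ProjectiveSpecialLinearGroup (Fin n) F) = r :=
    order_mk hr hXr hXs
  have ha : orderOf (QuotientGroup.mk gA : Matrix.ProjectiveSpecialLinearGroup (Fin n) F) = t :=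
    order_mk ht hAt hAs
  have hb : orderOf (QuotientGroup.mk gB : Matrix.ProjectiveSpecialLinearGroup (Fin n) F) = t :=
    order_mk ht hBt hBs
  have h1 : Commute (QuotientGroup.mk gA : Matrix.ProjectiveSpecialLinearGroup (Fin n) F) (QuotientGroup.mk gX) := by
    have : gA * gX = gX * gA := Subtype.ext hAX
    show QuotientGroup.mk gA * QuotientGroup.mk gX = _
    rw [← QuotientGroup.mk_mul, this, QuotientGroup.mk_mul]
  have h2 : Commute (QuotientGroup.mk gB : Matrix.ProjectiveSpecialLinearGroup (Fin n) F) (QuotientGroup.mk gX) := by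
    have : gB * gX = gX * gB := Subtype.ext hBX
    show QuotientGroup.mk gB * QuotientGroup.mk gX = _
    rw [← QuotientGroup.mk_mul, this, QuotientGroup.mk_mul]
  have : Finite (Matrix.ProjectiveSpecialLinearGroup (Fin n) F) := inferInstance
  have h3 := h.mem_zpowers hx h1 h2 (by rw [ha, hb])
  obtain ⟨k, hk⟩ := (mem_powers_iff_mem_zpowers.2 h3)
  have hk' : (QuotientGroup.mk (gB ^ k) : Matrix.ProjectiveSpecialLinearGroup (Fin n) F) = QuotientGroup.mk gA := hk
  obtain ⟨c, hc⟩ := mk_eq_mk hk'.symm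
  rw [Matrix.SpecialLinearGroup.coe_pow] at hc
  exact hAB c k hc

/-- the same for matrices with another index type -/
theorem not_cc_ix {ι : Type*} [Fintype ι] [DecidableEq ι] (e : Fin n ≃ ι) {r t : ℕ} {X A B : Matrix ι ι F}
    (hr : r.Prime) (ht : t.Prime)
    (hX : X.det = 1) (hA : A.det = 1) (hB : B.det = 1)
    (hXr : X ^ r = 1) (hXs : ∀ c : F, X ≠ c • 1) (hAt : A ^ t = 1) (hAs : ∀ c : F, A ≠ c • 1)
    (hBt : B ^ t = 1) (hBs : ∀ c : F, B ≠ c • 1)
    (hAX : A * X = X * A) (hBX : B * X = X * B) (hAB : ∀ (c : F) (k : ℕ), A ≠ c • B ^ k)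
    (h : CC (Matrix.ProjectiveSpecialLinearGroup (Fin n) F) r) : False := by
  have hs : ∀ (A : Matrix ι ι F) (k : ℕ), (A.submatrix e e) ^ k = (A ^ k).submatrix e e := by
    intro A k
    induction k with
    | zero => rw [pow_zero, pow_zero, Matrix.submatrix_one_equiv]
    | succ k ih => rw [pow_succ, ih, Matrix.submatrix_mul_equiv, ← pow_succ]
  have hb : ∀ (A B : Matrix ι ι F), A.submatrix e e = B.submatrix e e → A = B := by
    intro A B hAB
    have h4 := congrArg (fun M : Matrix (Fin n) (Fin n) F => M.submatrix e.symm e.symm) hAB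
    simpa only [Matrix.submatrix_submatrix, Equiv.self_comp_symm, Matrix.submatrix_id_id] using h4
  have hc : ∀ (A : Matrix ι ι F), (∀ c : F, A ≠ c • 1) → ∀ c : F, A.submatrix e e ≠ c • 1 := by
    intro A hA c hc
    refine hA c (hb _ _ ?_)
    rw [hc]
    change c • 1 = c • ((1 : Matrix ι ι F).submatrix e e)
    rw [Matrix.submatrix_one_equiv]
  refine not_cc (n := n) (X := X.submatrix e e) (A := A.submatrix e e) (B := B.submatrix e e) hr ht
    ?_ ?_ ?_ ?_ (hc _ hXs) ?_ (hc _ hAs) ?_ (hc _ hBs) ?_ ?_ ?_ h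
  · rw [Matrix.det_submatrix_equiv_self, hX]
  · rw [Matrix.det_submatrix_equiv_self, hA]
  · rw [Matrix.det_submatrix_equiv_self, hB]
  · rw [hs, hXr, Matrix.submatrix_one_equiv]
  · rw [hs, hAt, Matrix.submatrix_one_equiv]
  · rw [hs, hBt, Matrix.submatrix_one_equiv]
  · rw [Matrix.submatrix_mul_equiv, hAX, Matrix.submatrix_mul_equiv]
  · rw [Matrix.submatrix_mul_equiv, hBX, Matrix.submatrix_mul_equiv]
  · intro c k hk
    refine hAB c k (hb _ _ ?_)
    rw [hk, hs]
    rfl

theorem upper_pow (a : F) (k : ℕ) :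
    (!![1, a; 0, 1] : Matrix (Fin 2) (Fin 2) F) ^ k = !![1, (k : F) * a; 0, 1] := by
  induction k with
  | zero => simp [Matrix.one_fin_two]
  | succ k ih =>
    rw [pow_succ, ih, Matrix.mul_fin_two]
    push_cast
    congr 1
    ext i j
    fin_cases i <;> fin_cases j <;> simp <;> ring

theorem lower_pow (a : F) (k : ℕ) :
    (!![1, 0; a, 1] : Matrix (Fin 2) (Fin 2) F) ^ k = !![1, 0; (k : F) * a, 1] := by
  induction k with
  | zero => simp [Matrix.one_fin_two]
  | succ k ih =>
    rw [pow_succ, ih, Matrix.mul_fin_two]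
    push_cast
    ext i j
    fin_cases i <;> fin_cases j <;> simp <;> ring

/-- an element acting as a scalar on a two-dimensional space does not have a cyclic centraliser -/
theorem not_cc_block {κ : Type*} [Fintype κ] [DecidableEq κ] (e : Fin n ≃ Fin 2 ⊕ κ) {r : ℕ} (hr : r.Prime) {a : F}
    {B : Matrix κ κ F} (hdet : a ^ 2 * B.det = 1) (ha : a ^ r = 1) (hB : B ^ r = 1) (hs : B ≠ a • 1)
    (h : CC (Matrix.ProjectiveSpecialLinearGroup (Fin n) F) r) : False := by
  obtain ⟨t, ht⟩ := CharP.exists F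
  have htp : t.Prime := CharP.char_is_prime F t
  have hsc : ∀ (P : Matrix (Fin 2) (Fin 2) F), P ≠ 1 → P 0 0 = 1 → ∀ c : F,
      fromBlocks P 0 0 (1 : Matrix κ κ F) ≠ c • 1 := by
    intro P hP hP' c hc
    obtain ⟨h1, -⟩ := Cfsg.Agent.H72.AdjPSU.fromBlocks_eq_smul hc
    apply hP
    have h2 : c = 1 := by
      rw [h1] at hP'
      simpa using hP'
    rw [h1, h2, one_smul]
  refine not_cc_ix e (r := r) (t := t) (X := fromBlocks (a • 1) 0 0 B)
    (A := fromBlocks !![1, 1; 0, 1] 0 0 1) (B := fromBlocks !![1, 0; 1, 1] 0 0 1) hr htp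
    ?_ ?_ ?_ ?_ ?_ ?_ (hsc _ ?_ rfl) ?_ (hsc _ ?_ rfl) ?_ ?_ ?_ h
  · rw [Matrix.det_fromBlocks_zero₂₁, Matrix.det_smul, Matrix.det_one, mul_one]
    simpa using hdet
  · rw [Matrix.det_fromBlocks_zero₂₁, Matrix.det_fin_two_of]; simp
  · rw [Matrix.det_fromBlocks_zero₂₁, Matrix.det_fin_two_of]; simp
  · rw [Cfsg.Agent.H72.AdjPSU.fromBlocks_pow, hB, smul_pow, one_pow, ha, one_smul, Matrix.fromBlocks_one]
  · intro c hc
    obtain ⟨h1, h2⟩ := Cfsg.Agent.H72.AdjPSU.fromBlocks_eq_smul hc
    have h3 : a = c := by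
      have := congrFun (congrFun h1 0) 0
      simpa using this
    exact hs (by rw [h2, h3])
  · rw [Cfsg.Agent.H72.AdjPSU.fromBlocks_pow, upper_pow, one_pow, CharP.cast_eq_zero, zero_mul,
      ← Matrix.one_fin_two, Matrix.fromBlocks_one]
  · intro h1
    have := congrFun (congrFun h1 0) 1
    simp at this
  · rw [Cfsg.Agent.H72.AdjPSU.fromBlocks_pow, lower_pow, one_pow, CharP.cast_eq_zero, zero_mul,
      ← Matrix.one_fin_two, Matrix.fromBlocks_one]
  · intro h1
    have := congrFun (congrFun h1 1) 0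
    simp at this
  · rw [Matrix.fromBlocks_multiply, Matrix.fromBlocks_multiply]
    simp
  · rw [Matrix.fromBlocks_multiply, Matrix.fromBlocks_multiply]
    simp
  · intro c k hk
    rw [Cfsg.Agent.H72.AdjPSU.fromBlocks_pow, lower_pow] at hk
    have h1 := congrFun (congrFun hk (Sum.inl 0)) (Sum.inl 1)
    simp at h1

theorem transvection_pow {i j : Fin n} (hij : i ≠ j) (a : F) (k : ℕ) :
    (Matrix.transvection i j a) ^ k = Matrix.transvection i j ((k : F) * a) := by
  induction k with
  | zero => simp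
  | succ k ih =>
    rw [pow_succ, ih, Matrix.transvection_mul_transvection_same _ _ hij]
    push_cast
    rw [add_mul, one_mul]

theorem transvection_apply {i j : Fin n} (a : F) : Matrix.transvection i j a i j = (1 : Matrix (Fin n) (Fin n) F) i j + a := by
  rw [Matrix.transvection, Matrix.add_apply, Matrix.single_apply_same]

theorem transvection_ne {i j : Fin n} (hij : i ≠ j) {a : F} (ha : a ≠ 0) (c : F) :
    Matrix.transvection i j a ≠ c • 1 := by
  intro h
  have h1 := congrFun (congrFun h i) j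
  rw [transvection_apply, Matrix.smul_apply, Matrix.one_apply_ne hij] at h1
  simp at h1
  exact ha h1

/-- the characteristic is excluded for `n ≥ 3` -/
theorem not_cc_char (hn : 3 ≤ n) {t : ℕ} [CharP F t] (ht : t.Prime)
    (h : CC (Matrix.ProjectiveSpecialLinearGroup (Fin n) F) t) : False := by
  let i : Fin n := ⟨0, by omega⟩
  let j : Fin n := ⟨1, by omega⟩
  let k : Fin n := ⟨2, by omega⟩
  have hij : i ≠ j := by intro h; have := congrArg Fin.val h; simp [i, j] at this
  have hik : i ≠ k := by intro h; have := congrArg Fin.val h; simp [i, k] at this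
  have hjk : j ≠ k := by intro h; have := congrArg Fin.val h; simp [j, k] at this
  refine not_cc (n := n) (X := Matrix.transvection i k (1 : F)) (A := Matrix.transvection i k (1 : F))
    (B := Matrix.transvection i j (1 : F)) ht ht
    (Matrix.det_transvection_of_ne _ _ hik _) (Matrix.det_transvection_of_ne _ _ hik _)
    (Matrix.det_transvection_of_ne _ _ hij _) ?_ (transvection_ne hik one_ne_zero) ?_
    (transvection_ne hik one_ne_zero) ?_ (transvection_ne hij one_ne_zero) rfl ?_ ?_ h
  · rw [transvection_pow hik, CharP.cast_eq_zero, zero_mul, Matrix.transvection_zero]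
  · rw [transvection_pow hik, CharP.cast_eq_zero, zero_mul, Matrix.transvection_zero]
  · rw [transvection_pow hij, CharP.cast_eq_zero, zero_mul, Matrix.transvection_zero]
  · rw [Matrix.transvection, Matrix.transvection, add_mul, mul_add, mul_add, add_mul, mul_add, mul_add,
      Matrix.single_mul_single_of_ne _ _ _ _ hij.symm, Matrix.single_mul_single_of_ne _ _ _ _ hik.symm]
    simp only [one_mul, mul_one, add_zero]
    abel
  · intro c l hl
    rw [transvection_pow hij] at hl
    have h1 := congrFun (congrFun hl i) k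
    rw [transvection_apply, Matrix.smul_apply, Matrix.transvection, Matrix.add_apply, Matrix.one_apply_ne hik,
      Matrix.single_apply_of_col_ne _ _ hjk] at h1
    simp at h1

theorem one_lt_card' : 1 < Fintype.card F := Fintype.one_lt_card

/-- elements of order `r` in the field -/
theorem exists_root {r : ℕ} (hr : r.Prime) (h : r ∣ Fintype.card F - 1) : ∃ a : F, orderOf a = r := by
  classical
  have := Fact.mk hr
  obtain ⟨u, hu⟩ := exists_prime_orderOf_dvd_card r (G := Fˣ) (by rwa [Fintype.card_units])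
  exact ⟨u, by rw [orderOf_units, hu]⟩

/-- the order of `q` modulo `r` is at least `n - 1` -/
theorem le_ee (hn : 3 ≤ n) {r : ℕ} (hr : r.Prime) (h11 : 11 ≤ r) (hrq : ¬ r ∣ Fintype.card F)
    (h : CC (Matrix.ProjectiveSpecialLinearGroup (Fin n) F) r) : n ≤ ee (Fintype.card F) r + 1 := by
  by_contra hlt
  have hpos := ee_pos hr hrq
  have hq1 := Fintype.one_lt_card (α := F)
  by_cases h1 : ee (Fintype.card F) r = 1
  · obtain ⟨a, ha⟩ := exists_root hr ((ee_eq_one_iff (by omega)).1 h1)
    have ha0 : a ≠ 0 := by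
      rintro rfl
      have h2 : (0 : F) ^ r = 1 := by rw [← ha]; exact pow_orderOf_eq_one _
      rw [zero_pow hr.ne_zero] at h2
      exact zero_ne_one h2
    have har : a ^ r = 1 := by rw [← ha]; exact pow_orderOf_eq_one _
    have hn1 : n = 2 + (1 + (n - 3)) := by omega
    let e : Fin n ≃ Fin 2 ⊕ (Fin 1 ⊕ Fin (n - 3)) :=
      ((finCongr hn1).trans finSumFinEquiv.symm).trans (Equiv.sumCongr (Equiv.refl _) finSumFinEquiv.symm)
    refine not_cc_block e hr (a := a) (B := fromBlocks ((a ^ 2)⁻¹ • 1) 0 0 1) ?_ har ?_ ?_ h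
    · rw [Matrix.det_fromBlocks_zero₂₁, Matrix.det_smul, Matrix.det_one, Matrix.det_one]
      simp [ha0]
    · rw [Cfsg.Agent.H72.AdjPSU.fromBlocks_pow, smul_pow, one_pow, one_pow, inv_pow, ← pow_mul, mul_comm 2 r,
        pow_mul, har, one_pow, inv_one, one_smul, Matrix.fromBlocks_one]
    · intro h2
      obtain ⟨h3, -⟩ := Cfsg.Agent.H72.AdjPSU.fromBlocks_eq_smul h2
      have h4 : (a ^ 2)⁻¹ = a := by
        have := congrFun (congrFun h3 0) 0
        simpa using this
      have h5 : a ^ 3 = 1 := by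
        rw [pow_succ]
        nth_rewrite 2 [← h4]
        exact mul_inv_cancel₀ (pow_ne_zero _ ha0)
      have h6 := Nat.le_of_dvd (by norm_num) (orderOf_dvd_of_pow_eq_one h5)
      omega
  · have hr1 : ¬ r ∣ Fintype.card F - 1 := fun h2 => h1 ((ee_eq_one_iff (by omega)).2 h2)
    have hdv := dvd_pow_ee (q := Fintype.card F) (r := r) (by omega)
    generalize ee (Fintype.card F) r = b at *
    obtain ⟨A, hAd, hA1, hA2⟩ := hasBlock_singer (F := F) (a := b) (d := r) (by omega)
      hdv ((Nat.Prime.coprime_iff_not_dvd hr).2 hr1)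
    have hn1 : n = 2 + (b + (n - 2 - b)) := by omega
    let e : Fin n ≃ Fin 2 ⊕ (Fin b ⊕ Fin (n - 2 - b)) :=
      ((finCongr hn1).trans finSumFinEquiv.symm).trans (Equiv.sumCongr (Equiv.refl _) finSumFinEquiv.symm)
    refine not_cc_block e hr (a := 1) (B := fromBlocks A 0 0 1) ?_ (one_pow _) ?_ ?_ h
    · rw [Matrix.det_fromBlocks_zero₂₁, hAd, Matrix.det_one, one_pow, one_mul, one_mul]
    · rw [Cfsg.Agent.H72.AdjPSU.fromBlocks_pow, hA1, one_pow, Matrix.fromBlocks_one]
    · intro h2
      obtain ⟨h3, -⟩ := Cfsg.Agent.H72.AdjPSU.fromBlocks_eq_smul h2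
      have h4 := hA2 1 (by rw [pow_one, h3, one_smul])
      have h5 := Nat.le_of_dvd one_pos h4
      omega

/-- **dimension at least three** -/
theorem psl_card_three (hn : 3 ≤ n) {ρ : Finset ℕ}
    (h : Ind (Matrix.ProjectiveSpecialLinearGroup (Fin n) F) ρ) : ρ.card ≤ 2 := by
  classical
  obtain ⟨t, ht⟩ := CharP.exists F
  have htp : t.Prime := CharP.char_is_prime F t
  obtain ⟨j, -, hj⟩ := FiniteField.card F t
  have hrq : ∀ r ∈ ρ, ¬ r ∣ Fintype.card F := by
    intro r hr hd
    rw [hj] at hd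
    have h3 : r = t := (Nat.prime_dvd_prime_iff_eq (h.prime r hr) htp).1 ((h.prime r hr).dvd_of_dvd_pow hd)
    exact not_cc_char hn htp (h3 ▸ h.cc r hr)
  have hinj : Set.InjOn (fun r => ee (Fintype.card F) r) ρ := by
    intro r hr s hs hrs
    by_contra hne
    exact h.not_adj hr hs hne (adj_of_ee hn (h.prime r hr) (h.prime s hs) hne (hrq r hr) hrs
      (ee_le (h.prime r hr) (hrq r hr) (h.dvd r hr)))
  have himg : ρ.image (fun r => ee (Fintype.card F) r) ⊆ {n - 1, n} := by
    intro y hy
    obtain ⟨r, hr, rfl⟩ := Finset.mem_image.1 hy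
    have h1 := le_ee hn (h.prime r hr) (h.ge r hr) (hrq r hr) (h.cc r hr)
    have h2 := ee_le (h.prime r hr) (hrq r hr) (h.dvd r hr)
    rw [Finset.mem_insert, Finset.mem_singleton]
    have h1' : n ≤ ee (Fintype.card F) r + 1 := h1
    show ee (Fintype.card F) r = n - 1 ∨ ee (Fintype.card F) r = n
    omega
  rw [← Finset.card_image_of_injOn hinj]
  exact (Finset.card_le_card himg).trans Finset.card_le_two

/-! ### dimension two -/

theorem commute_transvection {i j : Fin n} (hij : i ≠ j) (a b : F) :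
    Matrix.transvection i j a * Matrix.transvection i j b = Matrix.transvection i j b * Matrix.transvection i j a := by
  rw [Matrix.transvection_mul_transvection_same _ _ hij, Matrix.transvection_mul_transvection_same _ _ hij, add_comm]

/-- the characteristic and a divisor of `q - 1` -/
theorem two_char {t r : ℕ} [CharP F t] (ht : t.Prime) (hr : r.Prime) (h11 : 11 ≤ r) (hr1 : r ∣ Fintype.card F - 1)
    (hc : CC (Matrix.ProjectiveSpecialLinearGroup (Fin 2) F) t)
    (hN : NN (Matrix.ProjectiveSpecialLinearGroup (Fin 2) F) r t) : False := by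
  obtain ⟨a, ha⟩ := exists_root hr hr1
  have ha0 : a ≠ 0 := by
    rintro rfl
    have h2 : (0 : F) ^ r = 1 := by rw [← ha]; exact pow_orderOf_eq_one _
    rw [zero_pow hr.ne_zero] at h2
    exact zero_ne_one h2
  have har : a ^ r = 1 := by rw [← ha]; exact pow_orderOf_eq_one _
  have h01 : (0 : Fin 2) ≠ 1 := by decide
  by_cases hp : ∃ k : ℕ, (k : F) = a ^ 2
  · obtain ⟨k, hk⟩ := hp
    have hdpow : ∀ k : ℕ, (!![a, 0; 0, a⁻¹] : Matrix (Fin 2) (Fin 2) F) ^ k = !![a ^ k, 0; 0, a⁻¹ ^ k] := by
      intro k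
      induction k with
      | zero => simp [Matrix.one_fin_two]
      | succ k ih =>
        rw [pow_succ, ih, Matrix.mul_fin_two]
        simp [pow_succ]
    let gx : Matrix.SpecialLinearGroup (Fin 2) F := ⟨!![a, 0; 0, a⁻¹], by
      rw [Matrix.det_fin_two_of, mul_zero, sub_zero, mul_inv_cancel₀ ha0]⟩
    let gy : Matrix.SpecialLinearGroup (Fin 2) F := ⟨!![1, 1; 0, 1], by
      rw [Matrix.det_fin_two_of]; ring⟩
    have hx : orderOf (QuotientGroup.mk gx : Matrix.ProjectiveSpecialLinearGroup (Fin 2) F) = r := by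
      refine order_mk hr ?_ ?_
      · show (!![a, 0; 0, a⁻¹] : Matrix (Fin 2) (Fin 2) F) ^ r = 1
        rw [hdpow, inv_pow, har, inv_one, ← Matrix.one_fin_two]
      · intro c h1
        have h2 : a = c := by
          have := congrFun (congrFun h1 0) 0
          simpa [gx] using this
        have h3 : a⁻¹ = c := by
          have := congrFun (congrFun h1 1) 1
          simpa [gx] using this
        have h4 : a ^ 2 = 1 := by
          rw [pow_two]
          nth_rewrite 1 [h2, ← h3]
          exact inv_mul_cancel₀ ha0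
        have h6 := Nat.le_of_dvd (by norm_num) (orderOf_dvd_of_pow_eq_one h4)
        omega
    have hy : orderOf (QuotientGroup.mk gy : Matrix.ProjectiveSpecialLinearGroup (Fin 2) F) = t := by
      refine order_mk ht ?_ ?_
      · show (!![1, 1; 0, 1] : Matrix (Fin 2) (Fin 2) F) ^ t = 1
        rw [upper_pow, CharP.cast_eq_zero, zero_mul, ← Matrix.one_fin_two]
      · intro c h1
        have := congrFun (congrFun h1 0) 1
        simp [gy] at this
    refine hN _ _ hx hy ?_
    have h1 : gx * gy * gx⁻¹ = gy ^ k := by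
      have h2 : gx * gy = gy ^ k * gx := by
        apply Subtype.ext
        rw [Matrix.SpecialLinearGroup.coe_mul, Matrix.SpecialLinearGroup.coe_mul, Matrix.SpecialLinearGroup.coe_pow]
        show !![a, 0; 0, a⁻¹] * !![1, 1; 0, 1] = !![1, 1; 0, 1] ^ k * !![a, 0; 0, a⁻¹]
        rw [upper_pow, hk, Matrix.mul_fin_two, Matrix.mul_fin_two]
        ext i j
        fin_cases i <;> fin_cases j <;> simp
        field_simp
      rw [h2, mul_inv_cancel_right]
    have h3 : (QuotientGroup.mk gx : Matrix.ProjectiveSpecialLinearGroup (Fin 2) F) * QuotientGroup.mk gy *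
        (QuotientGroup.mk gx)⁻¹ = QuotientGroup.mk (gx * gy * gx⁻¹) := rfl
    rw [h3, h1]
    exact Subgroup.mem_zpowers_iff.2 ⟨k, by rw [zpow_natCast]; rfl⟩
  · refine not_cc (n := 2) (X := Matrix.transvection 0 1 (1 : F)) (A := Matrix.transvection 0 1 (a ^ 2))
      (B := Matrix.transvection 0 1 (1 : F)) ht ht
      (Matrix.det_transvection_of_ne _ _ h01 _) (Matrix.det_transvection_of_ne _ _ h01 _)
      (Matrix.det_transvection_of_ne _ _ h01 _) ?_ (transvection_ne h01 one_ne_zero) ?_
      (transvection_ne h01 (pow_ne_zero _ ha0)) ?_ (transvection_ne h01 one_ne_zero)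
      (commute_transvection h01 _ _) rfl ?_ hc
    · rw [transvection_pow h01, CharP.cast_eq_zero, zero_mul, Matrix.transvection_zero]
    · rw [transvection_pow h01, CharP.cast_eq_zero, zero_mul, Matrix.transvection_zero]
    · rw [transvection_pow h01, CharP.cast_eq_zero, zero_mul, Matrix.transvection_zero]
    · intro c l hl
      rw [transvection_pow h01, mul_one] at hl
      have h1 := congrFun (congrFun hl 0) 0
      have h2 := congrFun (congrFun hl 0) 1
      simp [Matrix.transvection] at h1 h2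
      rw [← h1, one_mul] at h2
      exact hp ⟨l, h2.symm⟩

/-- two odd primes dividing `q - 1` are adjacent -/
theorem two_minus {r s : ℕ} (hr : r.Prime) (hs : s.Prime) (hrs : r ≠ s) (h11 : 11 ≤ r) (h11' : 11 ≤ s)
    (h1 : r ∣ Fintype.card F - 1) (h2 : s ∣ Fintype.card F - 1) :
    ∃ z : Matrix.ProjectiveSpecialLinearGroup (Fin 2) F, orderOf z = r * s := by
  obtain ⟨a, ha⟩ := exists_root hr h1
  obtain ⟨b, hb⟩ := exists_root hs h2
  have hco : Nat.Coprime (orderOf a) (orderOf b) := by
    rw [ha, hb]; exact (Nat.coprime_primes hr hs).2 hrs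
  have hab : orderOf (a * b) = r * s := by
    rw [(Commute.all a b).orderOf_mul_eq_mul_orderOf_of_coprime hco, ha, hb]
  set d := a * b with hd
  have hrs0 : r * s ≠ 0 := Nat.mul_ne_zero hr.ne_zero hs.ne_zero
  have hd0 : d ≠ 0 := by
    intro h0
    have h2 : d ^ (r * s) = 1 := by rw [← hab]; exact pow_orderOf_eq_one _
    rw [h0, zero_pow hrs0] at h2
    exact zero_ne_one h2
  have hdpow : ∀ k : ℕ, (!![d, 0; 0, d⁻¹] : Matrix (Fin 2) (Fin 2) F) ^ k = !![d ^ k, 0; 0, d⁻¹ ^ k] := by
    intro k
    induction k with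
    | zero => simp [Matrix.one_fin_two]
    | succ k ih =>
      rw [pow_succ, ih, Matrix.mul_fin_two]
      simp [pow_succ]
  refine exists_order (N := r * s) !![d, 0; 0, d⁻¹] ?_ ?_ (r * s) dvd_rfl
  · rw [Matrix.det_fin_two_of, mul_zero, sub_zero, mul_inv_cancel₀ hd0]
  · intro k c hk
    rw [hdpow] at hk
    have h3 : d ^ k = c := by
      have := congrFun (congrFun hk 0) 0
      simpa using this
    have h4 : d⁻¹ ^ k = c := by
      have := congrFun (congrFun hk 1) 1
      simpa using this
    have h5 : d ^ (2 * k) = 1 := by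
      rw [mul_comm, pow_mul, pow_two]
      nth_rewrite 1 [h3, ← h4]
      rw [inv_pow]
      exact inv_mul_cancel₀ (pow_ne_zero _ hd0)
    have h6 := orderOf_dvd_of_pow_eq_one h5
    rw [hab] at h6
    refine Nat.Coprime.dvd_of_dvd_mul_left ?_ h6
    refine Nat.Coprime.mul_left ?_ ?_
    · exact (Nat.coprime_primes hr Nat.prime_two).2 (by omega)
    · exact (Nat.coprime_primes hs Nat.prime_two).2 (by omega)

theorem two_plus {r s : ℕ} (hr : r.Prime) (hs : s.Prime) (hrs : r ≠ s)
    (h1 : ee (Fintype.card F) r = 2) (h2 : ee (Fintype.card F) s = 2) :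
    ∃ z : Matrix.ProjectiveSpecialLinearGroup (Fin 2) F, orderOf z = r * s := by
  have hq1 := Fintype.one_lt_card (α := F)
  have hco : Nat.Coprime r s := (Nat.coprime_primes hr hs).2 hrs
  have h3 : ¬ r ∣ Fintype.card F - 1 := fun h3 => by
    have := (ee_eq_one_iff (by omega)).2 h3
    omega
  have h4 : ¬ s ∣ Fintype.card F - 1 := fun h3 => by
    have := (ee_eq_one_iff (by omega)).2 h3
    omega
  have hco1 : Nat.Coprime (r * s) (Fintype.card F - 1) :=
    Nat.Coprime.mul_left ((Nat.Prime.coprime_iff_not_dvd hr).2 h3) ((Nat.Prime.coprime_iff_not_dvd hs).2 h4)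
  have h5 := dvd_pow_ee (q := Fintype.card F) (r := r) (by omega)
  have h6 := dvd_pow_ee (q := Fintype.card F) (r := s) (by omega)
  rw [h1] at h5
  rw [h2] at h6
  exact exists_order_of_block (hasBlock_singer (by norm_num) (hco.mul_dvd_of_dvd_of_dvd h5 h6) hco1) (by norm_num)
    le_rfl hco1 _ dvd_rfl

theorem psl_card_two {ρ : Finset ℕ} (h : Ind (Matrix.ProjectiveSpecialLinearGroup (Fin 2) F) ρ) : ρ.card ≤ 2 := by
  classical
  obtain ⟨t, ht⟩ := CharP.exists F
  have htp : t.Prime := CharP.char_is_prime F t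
  obtain ⟨j, -, hj⟩ := FiniteField.card F t
  have hq1 := Fintype.one_lt_card (α := F)
  have htq : ∀ r ∈ ρ, r ∣ Fintype.card F → r = t := by
    intro r hr hd
    rw [hj] at hd
    exact (Nat.prime_dvd_prime_iff_eq (h.prime r hr) htp).1 ((h.prime r hr).dvd_of_dvd_pow hd)
  have hcase : ∀ r ∈ ρ, r = t ∨ r ∣ Fintype.card F - 1 ∨ ee (Fintype.card F) r = 2 := by
    intro r hr
    by_cases hd : r ∣ Fintype.card F
    · exact Or.inl (htq r hr hd)
    · right
      have h1 := ee_le (h.prime r hr) hd (h.dvd r hr)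
      have h2 := ee_pos (h.prime r hr) hd
      by_cases h3 : ee (Fintype.card F) r = 1
      · exact Or.inl ((ee_eq_one_iff (by omega)).1 h3)
      · right; omega
  let f : ℕ → ℕ := fun r => if r = t ∨ r ∣ Fintype.card F - 1 then 0 else 1
  have hinj : Set.InjOn f ρ := by
    intro r hr s hs hrs
    by_contra hne
    simp only [f] at hrs
    split_ifs at hrs with h1 h2 h2
    · rcases h1 with rfl | h1
      · rcases h2 with h2 | h2
        · exact hne h2.symm
        · exact two_char htp (h.prime s hs) (h.ge s hs) h2 (h.cc r hr) (h.nn s hs r hr (Ne.symm hne))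
      · rcases h2 with rfl | h2
        · exact two_char htp (h.prime r hr) (h.ge r hr) h1 (h.cc s hs) (h.nn r hr s hs hne)
        · exact h.not_adj hr hs hne (two_minus (h.prime r hr) (h.prime s hs) hne (h.ge r hr) (h.ge s hs) h1 h2)
    · rcases hcase r hr with h3 | h3 | h3
      · exact h1 (Or.inl h3)
      · exact h1 (Or.inr h3)
      · rcases hcase s hs with h4 | h4 | h4
        · exact h2 (Or.inl h4)
        · exact h2 (Or.inr h4)
        · exact h.not_adj hr hs hne (two_plus (h.prime r hr) (h.prime s hs) hne h3 h4)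
  have himg : ρ.image f ⊆ {0, 1} := by
    intro y hy
    obtain ⟨r, hr, rfl⟩ := Finset.mem_image.1 hy
    simp only [f]
    split_ifs <;> simp
  rw [← Finset.card_image_of_injOn hinj]
  exact (Finset.card_le_card himg).trans Finset.card_le_two

/-- **`PSL_n(q)` has at most two independent primes with cyclic centralisers** -/
theorem psl_card (hn : 2 ≤ n) {ρ : Finset ℕ} (h : Ind (Matrix.ProjectiveSpecialLinearGroup (Fin n) F) ρ) :
    ρ.card ≤ 2 := by
  rcases Nat.lt_or_ge n 3 with h3 | h3
  · obtain rfl : n = 2 := by omega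
    exact psl_card_two h
  · exact psl_card_three h3 h

end Cfsg.Agent.H511.Exc
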